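import Cfsg.Agent.Lib.PGroups.Omega
import Cfsg.Agent.Lib.TwoGroups.NormalAbelian
import Mathlib.GroupTheory.GroupAction.Basic

/-!
A p-group (p odd) acting on an elementary abelian group with all stabilisers of non-zero vectors of
the same order acts fixed-point-freely and is cyclic.
-/

set_option autoImplicit false

namespace CfsgLib.HalfTransitive

variable {P E : Type*} [Group P] [AddCommGroup E] [DistribMulAction P E]

/-- The additive subgroup of vectors fixed by `g`. -/
def fixedAdd (g : P) : AddSubgroup E where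
  carrier := {e | g • e = e}
  add_mem' := fun {x y} hx hy => by
    show g • (x + y) = x + y
    rw [smul_add, show g • x = x from hx, show g • y = y from hy]
  zero_mem' := smul_zero g
  neg_mem' := fun {x} hx => by
    show g • (-x) = -x
    rw [smul_neg, show g • x = x from hx]

/-- The sum over the first `p` powers of `g`. -/
def powSum (p : ℕ) (g : P) (e : E) : E := ∑ j ∈ Finset.range p, g ^ j • e

theorem powSum_fixed {p : ℕ} {g : P} (hg : g ^ p = 1) (e : E) :
    g • powSum p g e = powSum p g e := by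
  have h := Finset.sum_range_succ (fun j => g ^ j • e) p
  have h' := Finset.sum_range_succ' (fun j => g ^ j • e) p
  simp only [hg, one_smul, pow_zero] at h h'
  have e1 : g • powSum p g e = ∑ j ∈ Finset.range p, g ^ (j + 1) • e := by
    simp only [powSum, Finset.smul_sum, smul_smul, ← pow_succ']
  rw [e1]
  exact add_right_cancel (h'.symm.trans h)

theorem powSum_add (p : ℕ) (g : P) (x y : E) :
    powSum p g (x + y) = powSum p g x + powSum p g y := by
  simp [powSum, smul_add, Finset.sum_add_distrib]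

theorem powSum_of_fixed (p : ℕ) {g : P} {e : E} (h : g • e = e) : powSum p g e = p • e := by
  have hj : ∀ j : ℕ, g ^ j • e = e := by
    intro j
    induction j with
    | zero => rw [pow_zero, one_smul]
    | succ j ih => rw [pow_succ, mul_smul, h, ih]
  simp [powSum, hj]

theorem powSum_congr (p : ℕ) {g h : P} {e : E} (hc : ∀ j < p, g ^ j • e = h ^ j • e) :
    powSum p g e = powSum p h e :=
  Finset.sum_congr rfl fun j hj => hc j (Finset.mem_range.1 hj)

theorem smul_powSum (p : ℕ) (x g : P) (e : E) :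
    x • powSum p g e = powSum p (x * g * x⁻¹) (x • e) := by
  simp only [powSum, Finset.smul_sum, smul_smul, conj_pow, inv_mul_cancel_right]

theorem eq_zero_of_nsmul {p q : ℕ} (hpq : p.Coprime q) (hE : ∀ e : E, q • e = 0) {e : E}
    (h : p • e = 0) : e = 0 := by
  have h1 := addOrderOf_dvd_iff_nsmul_eq_zero.2 h
  have h2 := addOrderOf_dvd_iff_nsmul_eq_zero.2 (hE e)
  exact AddMonoid.addOrderOf_eq_one_iff.1 (Nat.eq_one_of_dvd_coprimes hpq h1 h2)

variable [Finite P] [Finite E]

theorem stab_eq_of_le {a b : E}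
    (hconst : ∀ a b : E, a ≠ 0 → b ≠ 0 →
      Nat.card (MulAction.stabilizer P a) = Nat.card (MulAction.stabilizer P b))
    (ha : a ≠ 0) (hb : b ≠ 0)
    (h : MulAction.stabilizer P a ≤ MulAction.stabilizer P b) :
    MulAction.stabilizer P a = MulAction.stabilizer P b :=
  Subgroup.eq_of_le_of_card_ge h (hconst b a hb ha).le

/-- Two invariant complementary non-trivial summands force a fixed-point-free action. -/
theorem fpf_of_decomposable [FaithfulSMul P E]
    (hconst : ∀ a b : E, a ≠ 0 → b ≠ 0 →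
      Nat.card (MulAction.stabilizer P a) = Nat.card (MulAction.stabilizer P b))
    {E₁ E₂ : AddSubgroup E} (h₁ : ∀ (g : P), ∀ e ∈ E₁, g • e ∈ E₁)
    (h₂ : ∀ (g : P), ∀ e ∈ E₂, g • e ∈ E₂) (hne₁ : E₁ ≠ ⊥) (hne₂ : E₂ ≠ ⊥)
    (hd : ∀ e, e ∈ E₁ → e ∈ E₂ → e = 0) (hs : ∀ e : E, ∃ x ∈ E₁, ∃ y ∈ E₂, e = x + y)
    {g : P} {v : E} (hv : v ≠ 0) (hgv : g • v = v) : g = 1 := by
  have key : ∀ a ∈ E₁, ∀ b ∈ E₂, a ≠ 0 → b ≠ 0 →
      MulAction.stabilizer P a = MulAction.stabilizer P b := by
    intro a ha b hb ha0 hb0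
    have hab : a + b ≠ 0 := fun h => hb0 (hd b (by
      rw [eq_neg_of_add_eq_zero_right h]; exact E₁.neg_mem ha) hb)
    have hle : ∀ x : P, x • (a + b) = a + b → x • a = a ∧ x • b = b := by
      intro x hx
      rw [smul_add] at hx
      have e0 : x • a - a = b - x • b := by
        rw [sub_eq_sub_iff_add_eq_add, hx, add_comm]
      have hmem : x • a - a = 0 := hd _ (E₁.sub_mem (h₁ x a ha) ha)
        (e0 ▸ E₂.sub_mem hb (h₂ x b hb))
      refine ⟨sub_eq_zero.1 hmem, ?_⟩
      rw [hmem] at e0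
      exact (sub_eq_zero.1 e0.symm).symm
    exact (stab_eq_of_le hconst hab ha0 (fun x hx => (hle x hx).1)).symm.trans
      (stab_eq_of_le hconst hab hb0 (fun x hx => (hle x hx).2))
  obtain ⟨a₀, ha₀, ha₀0⟩ := (AddSubgroup.bot_or_exists_ne_zero E₁).resolve_left hne₁
  obtain ⟨b₀, hb₀, hb₀0⟩ := (AddSubgroup.bot_or_exists_ne_zero E₂).resolve_left hne₂
  have h0 : ∀ x : P, x • a₀ = a₀ → x = 1 := by
    intro x hx
    refine eq_of_smul_eq_smul (α := E) fun e => ?_
    obtain ⟨y, hy, z, hz, rfl⟩ := hs e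
    have hy' : x • y = y := by
      by_cases hy0 : y = 0
      · rw [hy0, smul_zero]
      · have : x ∈ MulAction.stabilizer P y := by
          rw [key y hy b₀ hb₀ hy0 hb₀0, ← key a₀ ha₀ b₀ hb₀ ha₀0 hb₀0]
          exact hx
        exact this
    have hz' : x • z = z := by
      by_cases hz0 : z = 0
      · rw [hz0, smul_zero]
      · have : x ∈ MulAction.stabilizer P z := by
          rw [← key a₀ ha₀ z hz ha₀0 hz0]
          exact hx
        exact this
    rw [one_smul, smul_add, hy', hz']
  have hbot : MulAction.stabilizer P a₀ = ⊥ := (Subgroup.eq_bot_iff_forall _).2 h0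
  have h1 := hconst v a₀ hv ha₀0
  rw [hbot, Subgroup.card_bot] at h1
  exact (Subgroup.eq_bot_iff_forall _).1 (Subgroup.eq_bot_of_card_eq _ h1) g hgv

theorem central_fpf [FaithfulSMul P E] {p q : ℕ} (hpq : p.Coprime q) (hP : IsPGroup p P)
    (hE : ∀ e : E, q • e = 0)
    (hconst : ∀ a b : E, a ≠ 0 → b ≠ 0 →
      Nat.card (MulAction.stabilizer P a) = Nat.card (MulAction.stabilizer P b))
    {z : P} (hz : z ∈ Subgroup.center P) (hz1 : z ≠ 1) {v : E} (hzv : z • v = v) : v = 0 := by
  by_contra hv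
  let f : E →+ E :=
    { toFun := fun e => z • e - e
      map_zero' := by simp
      map_add' := fun x y => by simp only [smul_add]; abel }
  have hcomm : ∀ (g : P) (e : E), g • z • e = z • g • e := fun g e => by
    rw [smul_smul, smul_smul, Subgroup.mem_center_iff.1 hz g]
  have hk : ∀ e, e ∈ f.ker ↔ z • e = e := fun e => by
    show z • e - e = 0 ↔ _
    exact sub_eq_zero
  have h₁ : ∀ (g : P), ∀ e ∈ f.ker, g • e ∈ f.ker := fun g e he => by
    rw [hk] at he ⊢
    rw [← hcomm, he]
  have h₂ : ∀ (g : P), ∀ e ∈ f.range, g • e ∈ f.range := by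
    rintro g _ ⟨w, rfl⟩
    exact ⟨g • w, by show z • g • w - g • w = g • (z • w - w); rw [smul_sub, hcomm]⟩
  obtain ⟨k, hk'⟩ := hP z
  have hd : ∀ e, e ∈ f.ker → e ∈ f.range → e = 0 := by
    rintro _ hker ⟨w, rfl⟩
    rw [hk] at hker
    have hpow : ∀ i : ℕ, z ^ i • w = w + i • f w := by
      intro i
      induction i with
      | zero => simp
      | succ i ih =>
        have e1 : z • w = w + f w := by show z • w = w + (z • w - w); abel
        have hfix : ∀ i : ℕ, z • (i • f w) = i • f w := fun i => by rw [smul_comm, hker]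
        rw [pow_succ', mul_smul, ih, smul_add, hfix, e1, succ_nsmul', add_assoc]
    have h0 := hpow (p ^ k)
    rw [hk', one_smul] at h0
    exact eq_zero_of_nsmul (hpq.pow_left k) hE (left_eq_add.1 h0)
  have hs : ∀ e : E, ∃ x ∈ f.ker, ∃ y ∈ f.range, e = x + y := by
    have hbij : Function.Bijective (fun p : f.ker × f.range => (p.1 : E) + p.2) := by
      refine (Nat.bijective_iff_injective_and_card _).2 ⟨?_, ?_⟩
      · rintro ⟨x, y⟩ ⟨x', y'⟩ h
        have h' : (x : E) + y = x' + y' := h
        have e0 : (x : E) - x' = y' - y := by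
          rw [sub_eq_sub_iff_add_eq_add, h', add_comm]
        have hxx := hd _ (f.ker.sub_mem x.2 x'.2) (e0 ▸ f.range.sub_mem y'.2 y.2)
        have hyy : (y' : E) - y = 0 := e0 ▸ hxx
        exact Prod.ext (Subtype.ext (sub_eq_zero.1 hxx)) (Subtype.ext (sub_eq_zero.1 hyy).symm)
      · rw [Nat.card_prod, ← AddSubgroup.index_ker f]
        exact f.ker.card_mul_index
    intro e
    obtain ⟨⟨x, y⟩, h⟩ := hbij.2 e
    exact ⟨x, x.2, y, y.2, h.symm⟩
  have hne₁ : f.ker ≠ ⊥ := fun h => hv ((AddSubgroup.eq_bot_iff_forall _).1 h v ((hk v).2 hzv))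
  have hne₂ : f.range ≠ ⊥ := fun h => hz1 (eq_of_smul_eq_smul (α := E) fun e => by
    rw [one_smul]
    exact sub_eq_zero.1 ((AddSubgroup.eq_bot_iff_forall _).1 h _ ⟨e, rfl⟩))
  exact hz1 (fpf_of_decomposable hconst h₁ h₂ hne₁ hne₂ hd hs hv hzv)

theorem fpf_of_const_stabilizer [FaithfulSMul P E] {p q : ℕ} [hp : Fact p.Prime] (hp2 : p ≠ 2)
    (hP : IsPGroup p P) (hq : q.Prime) (hE : ∀ e : E, q • e = 0)
    (hconst : ∀ a b : E, a ≠ 0 → b ≠ 0 →
      Nat.card (MulAction.stabilizer P a) = Nat.card (MulAction.stabilizer P b)) :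
    IsCyclic P ∧ ∀ g : P, g ≠ 1 → ∀ a : E, g • a = a → a = 0 := by
  rcases subsingleton_or_nontrivial P with hs | hn
  · exact ⟨inferInstance, fun g hg => absurd (Subsingleton.elim g 1) hg⟩
  rcases subsingleton_or_nontrivial E with hsE | hnE
  · exfalso
    obtain ⟨x, y, hxy⟩ := exists_pair_ne P
    exact hxy (eq_of_smul_eq_smul (α := E) fun e => Subsingleton.elim _ _)
  have hpq : p.Coprime q := by
    rw [Nat.coprime_primes hp.out hq]
    rintro rfl
    -- equal characteristics: a non-zero fixed vector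
    have hdvd : p ∣ Nat.card E := by
      obtain ⟨e, he⟩ := exists_ne (0 : E)
      have := addOrderOf_eq_prime (p := p) (hE e) he
      rw [← this]
      exact addOrderOf_dvd_natCard e
    obtain ⟨b, hb, hb0⟩ := hP.exists_fixed_point_of_prime_dvd_card_of_fixed_point E hdvd
      (a := (0 : E)) (fun g => smul_zero g)
    have hb' : b ≠ 0 := fun h => hb0 h.symm
    have htop : MulAction.stabilizer P b = ⊤ := eq_top_iff.2 fun g _ => hb g
    obtain ⟨x, y, hxy⟩ := exists_pair_ne P
    refine hxy (eq_of_smul_eq_smul (α := E) fun e => ?_)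
    by_cases he : e = 0
    · simp [he]
    have h1 := hconst e b he hb'
    rw [htop, Subgroup.card_top] at h1
    have h2 := Subgroup.eq_top_of_card_eq _ h1
    have hx : x ∈ MulAction.stabilizer P e := by rw [h2]; trivial
    have hy : y ∈ MulAction.stabilizer P e := by rw [h2]; trivial
    exact hx.trans (Eq.symm hy)
  suffices hfpf : ∀ g : P, g ≠ 1 → ∀ a : E, g • a = a → a = 0 by
    refine ⟨?_, hfpf⟩
    by_contra hnc
    obtain ⟨A, hAn, hAe, hAc⟩ := CfsgLib.PGroups.exists_normal_elemAb_sq hp2 hP hnc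
    have hA1 : A ≠ ⊥ := fun h => by
      rw [h, Subgroup.card_bot] at hAc
      exact absurd hAc.symm (Nat.one_lt_pow two_ne_zero hp.out.one_lt).ne'
    obtain ⟨z, hzA, hz1, -⟩ := CfsgLib.TwoGroups.exists_mem_center_of_normal hP hA1
    have hzp : z ^ p = 1 := hAe.2 z hzA
    have hord := orderOf_eq_prime hzp hz1
    obtain ⟨w, hwA, hwz⟩ : ∃ w ∈ A, w ∉ Subgroup.zpowers z := by
      by_contra hcon
      push Not at hcon
      have := Subgroup.card_le_of_le (hcon : A ≤ Subgroup.zpowers z)
      rw [hAc, Nat.card_zpowers, hord] at this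
      exact absurd this (not_le.2 (lt_self_pow₀ hp.out.one_lt Nat.one_lt_two))
    have hwp : w ^ p = 1 := hAe.2 w hwA
    have hcwz : Commute w z := congrArg Subtype.val (hAe.1.is_comm.comm ⟨w, hwA⟩ ⟨z, hzA⟩)
    obtain ⟨e, he⟩ := exists_ne (0 : E)
    refine he (eq_zero_of_nsmul hpq hE ?_)
    have hz0 : ∀ {g : P}, g ^ p = 1 → g ≠ 1 → ∀ x : E, powSum p g x = 0 :=
      fun {g} hg hg1 x => hfpf g hg1 _ (powSum_fixed hg x)
    have hsum : ∑ i ∈ Finset.range p, powSum p (w * z ^ i) e = 0 := by
      refine Finset.sum_eq_zero fun i _ => hz0 ?_ ?_ e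
      · rw [(hcwz.pow_right i).mul_pow, hwp, ← pow_mul, mul_comm, pow_mul, hzp, one_pow, one_mul]
      · intro h
        apply hwz
        rw [eq_inv_of_mul_eq_one_left h]
        exact Subgroup.inv_mem _ (Subgroup.pow_mem _ (Subgroup.mem_zpowers z) i)
    have h2 : ∑ i ∈ Finset.range p, powSum p (w * z ^ i) e = p • e := by
      simp only [powSum]
      rw [Finset.sum_comm]
      have hterm : ∀ j ∈ Finset.range p, ∑ i ∈ Finset.range p, (w * z ^ i) ^ j • e =
          if j = 0 then p • e else 0 := by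
        intro j hj
        split_ifs with h0
        · simp [h0]
        · have hzj : z ^ j ≠ 1 := fun h => h0 (Nat.eq_zero_of_dvd_of_lt
            (hord ▸ orderOf_dvd_of_pow_eq_one h) (Finset.mem_range.1 hj))
          have h3 := hz0 (g := z ^ j)
            (by rw [← pow_mul, mul_comm, pow_mul, hzp, one_pow]) hzj e
          simp only [powSum] at h3
          calc ∑ i ∈ Finset.range p, (w * z ^ i) ^ j • e
              = w ^ j • ∑ i ∈ Finset.range p, (z ^ j) ^ i • e := by
                rw [Finset.smul_sum]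
                refine Finset.sum_congr rfl fun i _ => ?_
                rw [(hcwz.pow_right i).mul_pow, mul_smul, ← pow_mul, ← pow_mul, mul_comm i j]
            _ = 0 := by rw [h3, smul_zero]
      rw [Finset.sum_congr rfl hterm]
      simp [hp.out.pos]
    exact h2.symm.trans hsum
  intro g hg a hga
  by_contra ha
  have hbig : ∀ v : E, v ≠ 0 → MulAction.stabilizer P v ≠ ⊥ := by
    intro v hv h
    have h1 := hconst a v ha hv
    rw [h, Subgroup.card_bot] at h1
    exact hg ((Subgroup.eq_bot_iff_forall _).1 (Subgroup.eq_bot_of_card_eq _ h1) g hga)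
  have hnc : ¬ IsCyclic P := by
    intro hc
    obtain ⟨x, hx⟩ := hc.exists_generator
    refine ha (central_fpf hpq hP hE hconst (Subgroup.mem_center_iff.2 fun y => ?_) hg hga)
    obtain ⟨i, rfl⟩ := Subgroup.mem_zpowers_iff.1 (hx y)
    obtain ⟨j, rfl⟩ := Subgroup.mem_zpowers_iff.1 (hx g)
    exact (Commute.zpow_zpow_self x i j).eq
  obtain ⟨A, hAn, hAe, hAc⟩ := CfsgLib.PGroups.exists_normal_elemAb_sq hp2 hP hnc
  have hA1 : A ≠ ⊥ := fun h => by
    rw [h, Subgroup.card_bot] at hAc
    exact absurd hAc.symm (Nat.one_lt_pow two_ne_zero hp.out.one_lt).ne'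
  obtain ⟨z, hzA, hz1, hzZ⟩ := CfsgLib.TwoGroups.exists_mem_center_of_normal hP hA1
  have hzp : z ^ p = 1 := hAe.2 z hzA
  have hord := orderOf_eq_prime hzp hz1
  obtain ⟨w, hwA, hwz⟩ : ∃ w ∈ A, w ∉ Subgroup.zpowers z := by
    by_contra hcon
    push Not at hcon
    have := Subgroup.card_le_of_le (hcon : A ≤ Subgroup.zpowers z)
    rw [hAc, Nat.card_zpowers, hord] at this
    exact absurd this (not_le.2 (lt_self_pow₀ hp.out.one_lt Nat.one_lt_two))
  have hwp : w ^ p = 1 := hAe.2 w hwA
  have hcwz : Commute w z := congrArg Subtype.val (hAe.1.is_comm.comm ⟨w, hwA⟩ ⟨z, hzA⟩)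
  have hord' : orderOf w = p := orderOf_eq_prime hwp fun h => hwz (h ▸ Subgroup.one_mem _)
  -- elements of `A` in coordinates
  have hcoord : ∀ x ∈ A, ∃ u i : ℕ, u < p ∧ i < p ∧ x = w ^ u * z ^ i := by
    intro x hx
    let f : Fin p × Fin p → A := fun ui => ⟨w ^ (ui.1 : ℕ) * z ^ (ui.2 : ℕ),
      A.mul_mem (A.pow_mem hwA _) (A.pow_mem hzA _)⟩
    have hf : Function.Bijective f := by
      refine (Nat.bijective_iff_injective_and_card f).2 ⟨?_, by simp [hAc, pow_two]⟩
      rintro ⟨u, i⟩ ⟨u', i'⟩ h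
      have h' : w ^ (u : ℕ) * z ^ (i : ℕ) = w ^ (u' : ℕ) * z ^ (i' : ℕ) := congrArg Subtype.val h
      have hu : u = u' := by
        by_contra hne
        have hne' : (u : ℕ) ≠ u' := fun h => hne (Fin.ext h)
        have hmem : w ^ ((u : ℤ) - u') ∈ Subgroup.zpowers z := by
          have e : w ^ ((u : ℤ) - u') = z ^ ((i' : ℤ) - i) := by
            rw [zpow_sub, zpow_sub, zpow_natCast, zpow_natCast, zpow_natCast, zpow_natCast,
              mul_inv_eq_iff_eq_mul, mul_assoc, ← ((hcwz.pow_pow (u' : ℕ) (i : ℕ)).inv_right).eq,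
              ← mul_assoc, eq_mul_inv_iff_mul_eq, h', (hcwz.pow_pow (u' : ℕ) (i' : ℕ)).eq]
          rw [e]
          exact Subgroup.zpow_mem _ (Subgroup.mem_zpowers z) _
        have hcop : IsCoprime ((u : ℤ) - u') (p : ℤ) := by
          rw [isCoprime_comm]
          refine (Nat.prime_iff_prime_int.1 hp.out).coprime_iff_not_dvd.2 fun hd => ?_
          have h0 := Int.eq_zero_of_abs_lt_dvd hd (abs_lt.2 ⟨by omega, by omega⟩)
          omega
        obtain ⟨r, s, hrs⟩ := hcop
        apply hwz
        have e2 : w = (w ^ ((u : ℤ) - u')) ^ r := by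
          rw [← zpow_mul, mul_comm]
          have e3 : r * ((u : ℤ) - u') = 1 - s * p := by linarith
          rw [e3, zpow_sub, zpow_one, zpow_mul', zpow_natCast, hwp, one_zpow, inv_one, mul_one]
        rw [e2]
        exact Subgroup.zpow_mem _ hmem _
      subst hu
      have hi := mul_left_cancel h'
      have := pow_injOn_Iio_orderOf (Set.mem_Iio.2 (hord ▸ i.2)) (Set.mem_Iio.2 (hord ▸ i'.2)) hi
      rw [Fin.ext this]
    obtain ⟨⟨u, i⟩, hui⟩ := hf.2 ⟨x, hx⟩
    exact ⟨u, i, u.2, i.2, (congrArg Subtype.val hui).symm⟩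
  have hconj : ∀ x : P, ∃ c < p, x * w * x⁻¹ = w * z ^ c := by
    intro x
    obtain ⟨u, c, hu, hc, he⟩ := hcoord _ (hAn.conj_mem w hwA x)
    obtain ⟨k, hk⟩ := hP x
    have hiter : ∀ n : ℕ, ∃ m : ℕ, x ^ n * w * (x ^ n)⁻¹ = w ^ (u ^ n) * z ^ m := by
      intro n
      induction n with
      | zero => exact ⟨0, by simp⟩
      | succ n ih =>
        obtain ⟨m, hm⟩ := ih
        refine ⟨c * u ^ n + m, ?_⟩
        calc x ^ (n + 1) * w * (x ^ (n + 1))⁻¹ = x * (x ^ n * w * (x ^ n)⁻¹) * x⁻¹ := by
              rw [pow_succ']; group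
          _ = (x * w ^ (u ^ n) * x⁻¹) * (x * z ^ m * x⁻¹) := by rw [hm]; group
          _ = (w ^ u * z ^ c) ^ (u ^ n) * z ^ m := by
              rw [← conj_pow, he, (Subgroup.mem_center_iff.1 ((Subgroup.center P).pow_mem hzZ m) x),
                mul_inv_cancel_right]
          _ = w ^ (u ^ (n + 1)) * z ^ (c * u ^ n + m) := by
              rw [(hcwz.pow_pow u c).mul_pow, ← pow_mul, ← pow_mul, mul_assoc, ← pow_add, pow_succ']
    obtain ⟨m, hm⟩ := hiter (p ^ k)
    rw [hk, one_mul, inv_one, mul_one] at hm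
    have hdiv : w ^ ((u ^ p ^ k : ℤ) - 1) ∈ Subgroup.zpowers z := by
      have e : w ^ ((u ^ p ^ k : ℤ) - 1) = (z ^ m)⁻¹ := by
        rw [zpow_sub, zpow_one, ← Nat.cast_pow, zpow_natCast, mul_inv_eq_iff_eq_mul]
        nth_rewrite 2 [hm]
        rw [← mul_assoc, (hcwz.pow_pow (u ^ p ^ k) m).inv_right.symm.eq, mul_assoc, inv_mul_cancel,
          mul_one]
      rw [e]
      exact Subgroup.inv_mem _ (Subgroup.pow_mem _ (Subgroup.mem_zpowers z) m)
    have hmod : ((u : ZMod p)) ^ p ^ k = 1 := by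
      by_contra hne
      have hcop : IsCoprime ((u ^ p ^ k : ℤ) - 1) (p : ℤ) := by
        rw [isCoprime_comm]
        refine (Nat.prime_iff_prime_int.1 hp.out).coprime_iff_not_dvd.2 fun hd => hne ?_
        have := (ZMod.intCast_zmod_eq_zero_iff_dvd _ p).2 hd
        push_cast at this
        exact sub_eq_zero.1 this
      obtain ⟨r, s, hrs⟩ := hcop
      apply hwz
      have e2 : w = (w ^ ((u ^ p ^ k : ℤ) - 1)) ^ r := by
        rw [← zpow_mul, mul_comm]
        have e3 : r * ((u ^ p ^ k : ℤ) - 1) = 1 - s * p := by linarith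
        rw [e3, zpow_sub, zpow_one, zpow_mul', zpow_natCast, hwp, one_zpow, inv_one, mul_one]
      rw [e2]
      exact Subgroup.zpow_mem _ hdiv _
    rw [ZMod.pow_card_pow] at hmod
    have hu1 : u = 1 := by
      have h1 : ((u : ZMod p)).val = (1 : ZMod p).val := congrArg ZMod.val hmod
      rwa [ZMod.val_natCast_of_lt hu, ZMod.val_one] at h1
    exact ⟨c, hc, by rw [he, hu1, pow_one]⟩
  have hz0 : ∀ (j : ℕ), z ^ j ≠ 1 → ∀ x : E, powSum p (z ^ j) x = 0 := fun j hj x =>
    central_fpf hpq hP hE hconst ((Subgroup.center P).pow_mem hzZ j) hj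
      (powSum_fixed (by rw [← pow_mul, mul_comm, pow_mul, hzp, one_pow]) x)
  have hgp : ∀ i : ℕ, (w * z ^ i) ^ p = 1 := fun i => by
    rw [(hcwz.pow_right i).mul_pow, hwp, ← pow_mul, mul_comm, pow_mul, hzp, one_pow, one_mul]
  -- decomposition into components
  have hdec : ∀ e : E, p • e = ∑ i ∈ Finset.range p, powSum p (w * z ^ i) e := by
    intro e
    simp only [powSum]
    rw [Finset.sum_comm]
    have hterm : ∀ j ∈ Finset.range p, ∑ i ∈ Finset.range p, (w * z ^ i) ^ j • e =
        if j = 0 then p • e else 0 := by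
      intro j hj
      split_ifs with h0
      · simp [h0]
      · have hzj : z ^ j ≠ 1 := fun h => h0 (Nat.eq_zero_of_dvd_of_lt
          (hord ▸ orderOf_dvd_of_pow_eq_one h) (Finset.mem_range.1 hj))
        have h3 := hz0 j hzj e
        simp only [powSum] at h3
        calc ∑ i ∈ Finset.range p, (w * z ^ i) ^ j • e
            = w ^ j • ∑ i ∈ Finset.range p, (z ^ j) ^ i • e := by
              rw [Finset.smul_sum]
              refine Finset.sum_congr rfl fun i _ => ?_
              rw [(hcwz.pow_right i).mul_pow, mul_smul, ← pow_mul, ← pow_mul, mul_comm i j]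
          _ = 0 := by rw [h3, smul_zero]
    rw [Finset.sum_congr rfl hterm]
    simp [hp.out.pos]
  -- other components vanish
  have horth : ∀ i k : ℕ, i < p → k < p → i ≠ k → ∀ v : E, (w * z ^ k) • v = v →
      powSum p (w * z ^ i) v = 0 := by
    intro i k hi hk hik v hv
    have hne : z ^ (i + (p - k)) ≠ 1 := fun h => by
      have h1 := hord ▸ orderOf_dvd_of_pow_eq_one h
      rcases lt_or_gt_of_ne hik with h' | h'
      · exact absurd (Nat.le_of_dvd (by omega) h1) (by omega)
      · obtain ⟨t, ht⟩ := h1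
        have ht1 : t = 1 := by
          rcases Nat.lt_or_ge t 1 with ht0 | ht0
          · interval_cases t; omega
          · by_contra hne1
            have : p * 2 ≤ p * t := Nat.mul_le_mul_left p (by omega)
            omega
        subst ht1
        omega
    rw [powSum_congr p (h := z ^ (i + (p - k)))]
    · exact hz0 _ hne v
    intro j _
    have e : w * z ^ i = (z ^ (i + (p - k))) * (w * z ^ k) := by
      rw [← mul_assoc, ← (hcwz.pow_right (i + (p - k))).eq, mul_assoc, ← pow_add,
        show i + (p - k) + k = i + p by omega, pow_add, hzp, mul_one]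
    have hfix : ∀ n : ℕ, (w * z ^ k) ^ n • v = v := by
      intro n
      induction n with
      | zero => simp
      | succ n ih => rw [pow_succ, mul_smul, hv, ih]
    have hcm : Commute (z ^ (i + (p - k))) (w * z ^ k) :=
      (Subgroup.mem_center_iff.1 ((Subgroup.center P).pow_mem hzZ _) _).symm
    rw [e, hcm.mul_pow, mul_smul, hfix]
  have key : ∀ i j : ℕ, i < p → j < p → i ≠ j → ∀ u v : E, (w * z ^ i) • u = u →
      (w * z ^ j) • v = v → u ≠ 0 → v ≠ 0 →
      MulAction.stabilizer P u = MulAction.stabilizer P v := by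
    intro i j hi hj hij u v hu hv hu0 hv0
    have hN : ∀ k : ℕ, k < p → powSum p (w * z ^ k) (u + v) =
        if k = i then p • u else if k = j then p • v else 0 := by
      intro k hk
      rw [powSum_add]
      split_ifs with h1 h2
      · subst h1
        rw [powSum_of_fixed p hu, horth k j hi hj hij v hv, add_zero]
      · subst h2
        rw [powSum_of_fixed p hv, horth k i hj hi (Ne.symm hij) u hu, zero_add]
      · rw [horth k i hk hi h1 u hu, horth k j hk hj h2 v hv, add_zero]
    have huv : u + v ≠ 0 := by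
      intro h
      have h1 := hN i hi
      rw [if_pos rfl, h] at h1
      simp [powSum] at h1
      exact hu0 (eq_zero_of_nsmul hpq hE h1.symm)
    have hboth : ∀ x : P, x • (u + v) = u + v → x • u = u ∧ x • v = v := by
      intro x hx
      obtain ⟨c, hc, hxc⟩ := hconj x
      have hxk : ∀ k : ℕ, x * (w * z ^ k) * x⁻¹ = w * z ^ ((k + c) % p) := by
        intro k
        have hzk := Subgroup.mem_center_iff.1 ((Subgroup.center P).pow_mem hzZ k) x
        calc x * (w * z ^ k) * x⁻¹ = (x * w * x⁻¹) * (x * z ^ k * x⁻¹) := by group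
          _ = w * z ^ (c + k) := by rw [hxc, hzk, mul_inv_cancel_right, mul_assoc, ← pow_add]
          _ = _ := by rw [pow_eq_pow_mod (c + k) hzp, add_comm c k]
      have hcomp : ∀ k : ℕ, k < p → powSum p (w * z ^ ((k + c) % p)) (u + v) =
          x • powSum p (w * z ^ k) (u + v) := by
        intro k _
        rw [smul_powSum, hxk, hx]
      have hi' := hcomp i hi
      rw [hN i hi, if_pos rfl, hN _ (Nat.mod_lt _ hp.out.pos)] at hi'
      have hj' := hcomp j hj
      rw [hN j hj, if_neg (Ne.symm hij), if_pos rfl, hN _ (Nat.mod_lt _ hp.out.pos)] at hj'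
      have hcne : ∀ {y : E}, y ≠ 0 → x • (p • y) ≠ 0 := by
        intro y hy h
        exact hy (eq_zero_of_nsmul hpq hE ((smul_eq_zero_iff_eq x).1 h))
      have hinj : ∀ {y y' : E}, p • y = x • (p • y') → x • y' = y := by
        intro y y' h
        have : p • (x • y' - y) = 0 := by rw [nsmul_sub, smul_comm p x y', ← h, sub_self]
        exact sub_eq_zero.1 (eq_zero_of_nsmul hpq hE this)
      by_cases hc0 : c = 0
      · subst hc0
        rw [add_zero, Nat.mod_eq_of_lt hi, if_pos rfl] at hi'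
        rw [add_zero, Nat.mod_eq_of_lt hj, if_neg (Ne.symm hij), if_pos rfl] at hj'
        exact ⟨hinj hi', hinj hj'⟩
      · exfalso
        have hi2 : (i + c) % p = j := by
          by_contra h
          rw [if_neg h] at hi'
          split_ifs at hi' with h'
          · rcases Nat.lt_or_ge (i + c) p with hlt | hge
            · rw [Nat.mod_eq_of_lt hlt] at h'; omega
            · rw [Nat.mod_eq_sub_mod hge, Nat.mod_eq_of_lt (by omega)] at h'; omega
          · exact hcne hu0 hi'.symm
        have hj2 : (j + c) % p = i := by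
          by_contra h
          rw [if_neg h] at hj'
          split_ifs at hj' with h'
          · rcases Nat.lt_or_ge (j + c) p with hlt | hge
            · rw [Nat.mod_eq_of_lt hlt] at h'; omega
            · rw [Nat.mod_eq_sub_mod hge, Nat.mod_eq_of_lt (by omega)] at h'; omega
          · exact hcne hv0 hj'.symm
        obtain ⟨t, ht⟩ := hp.out.odd_of_ne_two hp2
        rcases Nat.lt_or_ge (i + c) p with h1 | h1 <;> rcases Nat.lt_or_ge (j + c) p with h2 | h2
        · rw [Nat.mod_eq_of_lt h1] at hi2; rw [Nat.mod_eq_of_lt h2] at hj2; omega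
        · rw [Nat.mod_eq_of_lt h1] at hi2
          rw [Nat.mod_eq_sub_mod h2, Nat.mod_eq_of_lt (by omega)] at hj2; omega
        · rw [Nat.mod_eq_sub_mod h1, Nat.mod_eq_of_lt (by omega)] at hi2
          rw [Nat.mod_eq_of_lt h2] at hj2; omega
        · rw [Nat.mod_eq_sub_mod h1, Nat.mod_eq_of_lt (by omega)] at hi2
          rw [Nat.mod_eq_sub_mod h2, Nat.mod_eq_of_lt (by omega)] at hj2; omega
    exact (stab_eq_of_le hconst huv hu0 (fun x hx => (hboth x hx).1)).symm.trans
      (stab_eq_of_le hconst huv hv0 (fun x hx => (hboth x hx).2))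
  -- some component is non-zero
  have hex : ∀ e : E, e ≠ 0 → ∃ i < p, powSum p (w * z ^ i) e ≠ 0 := by
    intro e he
    by_contra hcon
    push Not at hcon
    refine he (eq_zero_of_nsmul hpq hE ?_)
    rw [hdec e]
    exact Finset.sum_eq_zero fun i hi => hcon i (Finset.mem_range.1 hi)
  obtain ⟨i₀, hi₀, hu₀⟩ := hex a ha
  set u₀ := powSum p (w * z ^ i₀) a with hu₀def
  obtain ⟨e₁, i₁, hi₁, hne, hv₁⟩ : ∃ e : E, ∃ i < p, i ≠ i₀ ∧ powSum p (w * z ^ i) e ≠ 0 := by
    by_contra hcon
    push Not at hcon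
    apply hwz
    have hw1 : w * z ^ i₀ = 1 := by
      refine eq_of_smul_eq_smul (α := E) fun e => ?_
      rw [one_smul]
      refine sub_eq_zero.1 (eq_zero_of_nsmul hpq hE ?_)
      rw [nsmul_sub, smul_comm, hdec e,
        Finset.sum_eq_single_of_mem i₀ (Finset.mem_range.2 hi₀)
          (fun i hi hne => hcon e i (Finset.mem_range.1 hi) hne),
        powSum_fixed (hgp i₀), sub_self]
    rw [eq_inv_of_mul_eq_one_left hw1]
    exact Subgroup.inv_mem _ (Subgroup.pow_mem _ (Subgroup.mem_zpowers z) i₀)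
  have hall : ∀ i < p, ∀ u : E, (w * z ^ i) • u = u → u ≠ 0 →
      MulAction.stabilizer P u = MulAction.stabilizer P u₀ := by
    intro i hi u hu hu0
    by_cases hii : i = i₀
    · subst hii
      exact (key i i₁ hi hi₁ hne.symm u _ hu (powSum_fixed (hgp i₁) e₁) hu0 hv₁).trans
        (key i i₁ hi hi₁ hne.symm u₀ _ (powSum_fixed (hgp i) a) (powSum_fixed (hgp i₁) e₁) hu₀ hv₁).symm
    · exact key i i₀ hi hi₀ hii u u₀ hu (powSum_fixed (hgp i₀) a) hu0 hu₀
  refine hbig u₀ hu₀ ((Subgroup.eq_bot_iff_forall _).2 fun x hx => ?_)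
  refine eq_of_smul_eq_smul (α := E) fun e => ?_
  rw [one_smul]
  refine sub_eq_zero.1 (eq_zero_of_nsmul hpq hE ?_)
  rw [nsmul_sub, smul_comm, hdec e, Finset.smul_sum, sub_eq_zero]
  refine Finset.sum_congr rfl fun i hi => ?_
  by_cases h0 : powSum p (w * z ^ i) e = 0
  · rw [h0, smul_zero]
  · have : x ∈ MulAction.stabilizer P (powSum p (w * z ^ i) e) := by
      rw [hall i (Finset.mem_range.1 hi) _ (powSum_fixed (hgp i) e) h0]; exact hx
    exact this

end CfsgLib.HalfTransitive
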