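import Mathlib

/-!
# Half-transitive groups of automorphisms

If `H` acts faithfully on a finite group `N` such that the non-trivial elements have stabilisers of
the same order `> 1`, then `N` is elementary abelian and has no proper invariant normal subgroup.
-/

set_option autoImplicit false

open scoped Classical

namespace CfsgLib.HalfTransitive.Auto

variable {N H : Type*} [Group N] [Finite N] [Group H] [Finite H] (φ : H →* MulAut N)

/-- The stabiliser of `n`. -/
def fixer (n : N) : Subgroup H where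
  carrier := {h | φ h n = n}
  one_mem' := by simp
  mul_mem' := fun {a b} (ha : φ a n = n) (hb : φ b n = n) => by
    show φ (a * b) n = n
    rw [map_mul, MulAut.mul_apply, hb, ha]
  inv_mem' := fun {a} (ha : φ a n = n) => by
    show φ a⁻¹ n = n
    conv_lhs => rw [← ha]
    rw [map_inv, MulAut.inv_apply_self]

theorem mem_fixer {n : N} {h : H} : h ∈ fixer φ n ↔ φ h n = n := Iff.rfl

variable {c : ℕ} (hc : ∀ n : N, n ≠ 1 → Nat.card (fixer φ n) = c)
include hc

theorem fixer_eq_of_le {m n : N} (hm : m ≠ 1) (hn : n ≠ 1) (h : fixer φ m ≤ fixer φ n) :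
    fixer φ m = fixer φ n :=
  Subgroup.eq_of_le_of_card_ge h (by rw [hc m hm, hc n hn])

/-- An invariant set is divided into orbits of a common size. -/
theorem index_dvd_card (S : Set N) (hS : (1 : N) ∉ S) (L : Subgroup H)
    (hinv : ∀ h ∈ L, ∀ s ∈ S, φ h s ∈ S) (hle : ∀ s ∈ S, fixer φ s ≤ L) {d : ℕ}
    (hd : ∀ s ∈ S, Nat.card L = d * Nat.card (fixer φ s)) : d ∣ Nat.card S := by
  haveI := Fintype.ofFinite N
  letI : MulAction L S :=
    { smul := fun l s => ⟨φ l s, hinv l l.2 s s.2⟩
      one_smul := fun s => Subtype.ext (by show φ ((1 : L) : H) (s : N) = s; simp)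
      mul_smul := fun a b s => Subtype.ext (by
        show φ ((a * b : L) : H) (s : N) = φ a (φ b s)
        simp) }
  rw [Nat.card_congr (MulAction.selfEquivSigmaOrbits L S), Nat.card_sigma]
  refine Finset.dvd_sum fun o _ => ?_
  set s : S := o.out
  have h1 : Nat.card (MulAction.orbit L s) * Nat.card (MulAction.stabilizer L s) = Nat.card L := by
    rw [← Nat.card_congr (MulAction.orbitProdStabilizerEquivGroup L s), Nat.card_prod]
  have h2 : Nat.card (MulAction.stabilizer L s) = Nat.card (fixer φ (s : N)) := by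
    refine Nat.card_congr
      { toFun := fun a => ⟨(a : L), congrArg Subtype.val a.2⟩
        invFun := fun a => ⟨⟨a, hle _ s.2 a.2⟩, Subtype.ext a.2⟩
        left_inv := fun a => rfl
        right_inv := fun a => rfl }
  rw [h2, hd s s.2] at h1
  exact ⟨1, by rw [mul_one]; exact Nat.eq_of_mul_eq_mul_right Nat.card_pos h1⟩

variable (hc1 : 1 < c)

/-- The common orbit size. -/
theorem exists_orbit_size [Nontrivial N] :
    ∃ k : ℕ, Nat.card H = k * c ∧ k.Coprime (Nat.card N) := by
  obtain ⟨x, hx⟩ := exists_ne (1 : N)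
  refine ⟨(fixer φ x).index, by rw [← hc x hx, mul_comm, Subgroup.card_mul_index], ?_⟩
  have h : (fixer φ x).index ∣ Nat.card ({n : N | n ≠ 1} : Set N) := by
    refine index_dvd_card φ hc _ (by simp) ⊤ (fun h _ s hs => ?_) (fun s _ => le_top) fun s hs => ?_
    · show φ h s ≠ 1
      exact fun e => hs ((φ h).injective (e.trans (map_one _).symm))
    · rw [Subgroup.card_top, hc s hs, ← hc x hx, mul_comm, Subgroup.card_mul_index]
  have hN : Nat.card N = Nat.card ({n : N | n ≠ 1} : Set N) + 1 := by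
    rw [Nat.card_coe_set_eq, show {n : N | n ≠ 1} = ({1} : Set N)ᶜ by ext; simp,
      ← Set.ncard_singleton (1 : N), add_comm, Set.ncard_add_ncard_compl]
  rw [hN]
  obtain ⟨q, hq⟩ := h
  rw [hq, Nat.coprime_mul_left_add_right]
  exact Nat.coprime_one_right _

/-- On a set of size prime to the orbit size, the set stabiliser fixes everything. -/
theorem le_fixer_of_coprime [Nontrivial N] (S : Set N) (hS : (1 : N) ∉ S) (L : Subgroup H)
    (hinv : ∀ h ∈ L, ∀ s ∈ S, φ h s ∈ S) (hle : ∀ s ∈ S, fixer φ s ≤ L)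
    (hcard : Nat.card S ∣ Nat.card N) : ∀ s ∈ S, L ≤ fixer φ s := by
  intro s hs
  obtain ⟨k, hk, hcop⟩ := exists_orbit_size φ hc
  have hne : ∀ u ∈ S, u ≠ 1 := fun u hu e => hS (e ▸ hu)
  have hcdL : c ∣ Nat.card L := hc s (hne s hs) ▸ Subgroup.card_dvd_of_le (hle s hs)
  obtain ⟨d, hd⟩ := hcdL
  have h1 : d ∣ Nat.card N :=
    (index_dvd_card φ hc S hS L hinv hle (d := d) fun u hu => by
      rw [hc u (hne u hu), hd, mul_comm]).trans hcard
  have h2 : d ∣ k := by
    have := L.card_subgroup_dvd_card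
    rw [hd, hk, mul_comm k c] at this
    exact Nat.dvd_of_mul_dvd_mul_left (hc s (hne s hs) ▸ Nat.card_pos) this
  have h3 : d = 1 := Nat.dvd_one.1 (hcop ▸ Nat.dvd_gcd h2 h1)
  refine (Subgroup.eq_of_le_of_card_ge (hle s hs) ?_).ge
  rw [hd, h3, mul_one, hc s (hne s hs)]

include hc1

theorem not_constant [Nontrivial N] (hφ : Function.Injective φ) :
    ¬ ∀ m n : N, m ≠ 1 → n ≠ 1 → fixer φ m = fixer φ n := by
  intro h
  obtain ⟨x, hx⟩ := exists_ne (1 : N)
  have : fixer φ x = ⊥ := by
    rw [Subgroup.eq_bot_iff_forall]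
    intro g hg
    apply hφ
    rw [map_one]
    ext n
    by_cases hn : n = 1
    · simp [hn]
    · exact (h x n hx hn ▸ hg : g ∈ fixer φ n)
  have h2 := hc x hx
  rw [this, Subgroup.card_bot] at h2
  omega

/-- There is no proper invariant normal subgroup. -/
theorem invariant_normal (hφ : Function.Injective φ) (M : Subgroup N) [M.Normal]
    (hM : ∀ h : H, ∀ m ∈ M, φ h m ∈ M) : M = ⊥ ∨ M = ⊤ := by
  by_contra hcon
  push Not at hcon
  obtain ⟨hbot, htop⟩ := hcon
  haveI : Nontrivial N := by
    obtain ⟨m, -, hm⟩ := (Subgroup.ne_bot_iff_exists_ne_one).1 hbot |>.elim fun m hm =>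
      (⟨(m : N), m.2, fun e => hm (Subtype.ext e)⟩ : ∃ m : N, m ∈ M ∧ m ≠ 1)
    exact ⟨m, 1, hm⟩
  have key : ∀ x : N, x ∉ M → ∀ m ∈ M, m ≠ 1 → fixer φ x = fixer φ m := by
    intro x hx m hm hm1
    let S : Set N := {s | x⁻¹ * s ∈ M}
    let L : Subgroup H :=
      { carrier := {h | x⁻¹ * φ h x ∈ M}
        one_mem' := by simp
        mul_mem' := fun {a b} (ha : x⁻¹ * φ a x ∈ M) (hb : x⁻¹ * φ b x ∈ M) => by
          show x⁻¹ * φ (a * b) x ∈ M
          have := M.mul_mem ha (hM a _ hb)
          rwa [map_mul (φ a), map_inv, mul_assoc, mul_inv_cancel_left, ← MulAut.mul_apply, ← map_mul] at this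
        inv_mem' := fun {a} (ha : x⁻¹ * φ a x ∈ M) => by
          show x⁻¹ * φ a⁻¹ x ∈ M
          have := M.inv_mem (hM a⁻¹ _ ha)
          rwa [map_mul (φ a⁻¹), map_inv (φ a⁻¹), mul_inv_rev, inv_inv, map_inv φ, MulAut.inv_apply_self,
            ← map_inv φ] at this }
    have hS : (1 : N) ∉ S := fun h => hx (by simpa [S] using h)
    have hL : ∀ s ∈ S, L ≤ fixer φ s := by
      refine le_fixer_of_coprime φ hc S hS L (fun h hh s hs => ?_) (fun s hs h hh => ?_) ?_
      · show x⁻¹ * φ h s ∈ M
        have := M.mul_mem (show x⁻¹ * φ h x ∈ M from hh) (hM h _ hs)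
        rwa [map_mul, map_inv, mul_assoc, mul_inv_cancel_left] at this
      · show x⁻¹ * φ h x ∈ M
        have hh' : φ h s = s := hh
        have := M.mul_mem (show x⁻¹ * s ∈ M from hs) (M.inv_mem (hM h _ hs))
        rwa [map_mul, map_inv, hh', mul_inv_rev, inv_inv, mul_assoc, mul_inv_cancel_left] at this
      · have e : Nat.card S = Nat.card M := Nat.card_congr
          { toFun := fun s => ⟨x⁻¹ * s, s.2⟩
            invFun := fun m => ⟨x * m, show x⁻¹ * (x * m) ∈ M by simp⟩
            left_inv := fun s => Subtype.ext (by simp)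
            right_inv := fun m => Subtype.ext (by simp) }
        rw [e]; exact M.card_subgroup_dvd_card
    refine fixer_eq_of_le φ hc (fun e => hx (e ▸ M.one_mem)) hm1 fun h hh => ?_
    have hhx : φ h x = x := hh
    have h1 : φ h (x * m) = x * m := hL (x * m) (show x⁻¹ * (x * m) ∈ M by simpa)
      (show x⁻¹ * φ h x ∈ M by rw [hhx, inv_mul_cancel]; exact M.one_mem)
    rw [map_mul, hhx, mul_right_inj] at h1
    exact h1
  obtain ⟨x, hx⟩ : ∃ x, x ∉ M := by
    by_contra h; push Not at h; exact htop (eq_top_iff.2 fun x _ => h x)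
  obtain ⟨⟨m, hm⟩, hm1⟩ := (Subgroup.ne_bot_iff_exists_ne_one).1 hbot
  have hm1' : m ≠ 1 := fun e => hm1 (Subtype.ext e)
  refine not_constant φ hc hc1 hφ fun a b ha hb => ?_
  have : ∀ a : N, a ≠ 1 → fixer φ a = fixer φ m := fun a ha => by
    by_cases haM : a ∈ M
    · rw [← key x hx a haM ha, key x hx m hm hm1']
    · exact key a haM m hm hm1'
  rw [this a ha, this b hb]

/-- The stabiliser of an element fixes all its conjugates. -/
theorem fixer_conj [Nontrivial N] {x : N} (hx : x ≠ 1) (n : N) :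
    fixer φ x = fixer φ (n * x * n⁻¹) := by
  let S : Set N := {s | IsConj x s}
  let L : Subgroup H :=
    { carrier := {h | IsConj x (φ h x)}
      one_mem' := by show IsConj x (φ 1 x); rw [map_one, MulAut.one_apply]
      mul_mem' := fun {a b} (ha : IsConj x (φ a x)) (hb : IsConj x (φ b x)) => by
        show IsConj x (φ (a * b) x)
        rw [map_mul, MulAut.mul_apply]
        exact ha.trans ((φ a).toMonoidHom.map_isConj hb)
      inv_mem' := fun {a} (ha : IsConj x (φ a x)) => by
        show IsConj x (φ a⁻¹ x)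
        have := ((φ a⁻¹).toMonoidHom.map_isConj ha).symm
        simpa [MulAut.inv_apply_self] using this }
  have hS : (1 : N) ∉ S := fun h => hx (isConj_one_left.1 h)
  have hL : ∀ s ∈ S, L ≤ fixer φ s := by
    refine le_fixer_of_coprime φ hc S hS L (fun h hh s hs => ?_) (fun s hs h hh => ?_) ?_
    · exact IsConj.trans hh ((φ h).toMonoidHom.map_isConj hs)
    · show IsConj x (φ h x)
      have hh' : φ h s = s := hh
      have h1 : IsConj (φ h x) (φ h s) := (φ h).toMonoidHom.map_isConj hs
      rw [hh'] at h1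
      exact IsConj.trans hs h1.symm
    · have e : Nat.card S = (MulAction.stabilizer (ConjAct N) x).index := by
        rw [MulAction.index_stabilizer, Nat.card_coe_set_eq, show S = MulAction.orbit (ConjAct N) x from ?_]
        ext s; rw [ConjAct.mem_orbit_conjAct]; exact ⟨IsConj.symm, IsConj.symm⟩
      rw [e]; exact Subgroup.index_dvd_card _
  have hn : n * x * n⁻¹ ≠ 1 := fun e => hx (conj_eq_one_iff.1 e)
  exact fixer_eq_of_le φ hc hx hn fun h hh =>
    hL _ (isConj_iff.2 ⟨n, rfl⟩) (show IsConj x (φ h x) by rw [show φ h x = x from hh])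

/-- The group is elementary abelian. -/
theorem elementary_abelian [Nontrivial N] (hφ : Function.Injective φ) :
    ∃ p : ℕ, p.Prime ∧ (∀ a b : N, a * b = b * a) ∧ ∀ a : N, a ^ p = 1 := by
  haveI := Fintype.ofFinite N
  have hab : ∀ a b : N, a * b = b * a := by
    by_contra hnab
    have hcen : Subgroup.center N = ⊥ := by
      refine (invariant_normal φ hc hc1 hφ (Subgroup.center N) fun h m hm => ?_).resolve_right fun e =>
        hnab fun a b => (Subgroup.mem_center_iff.1 (e ▸ Subgroup.mem_top b : b ∈ Subgroup.center N)) a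
      rw [Subgroup.mem_center_iff] at hm ⊢
      intro g
      obtain ⟨g, rfl⟩ := (φ h).surjective g
      rw [← map_mul, hm, map_mul]
    -- no abelian normal subgroup
    have habel : ∀ A : Subgroup N, A.Normal → (∀ a ∈ A, ∀ b ∈ A, a * b = b * a) → A = ⊥ := by
      intro A hA hAc
      by_contra hA1
      obtain ⟨⟨a, ha⟩, hne⟩ := (Subgroup.ne_bot_iff_exists_ne_one).1 hA1
      have hne' : a ≠ 1 := fun e => hne (Subtype.ext e)
      obtain ⟨p, hp, hpd⟩ := Nat.exists_prime_and_dvd (show orderOf a ≠ 1 by rwa [ne_eq, orderOf_eq_one_iff])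
      haveI : Fact p.Prime := ⟨hp⟩
      let B : Subgroup N :=
        { carrier := {b | b ∈ A ∧ b ^ p = 1}
          one_mem' := ⟨A.one_mem, one_pow _⟩
          mul_mem' := fun {u v} hu hv => ⟨A.mul_mem hu.1 hv.1, by
            rw [(show Commute u v from hAc u hu.1 v hv.1).mul_pow, hu.2, hv.2, one_mul]⟩
          inv_mem' := fun {u} hu => ⟨A.inv_mem hu.1, by rw [inv_pow, hu.2, inv_one]⟩ }
      haveI hBn : B.Normal := ⟨fun b hb g => ⟨hA.conj_mem b hb.1 g, by
        rw [conj_pow, hb.2, mul_one, mul_inv_cancel]⟩⟩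
      have hBp : IsPGroup p B := fun b => ⟨1, by
        rw [pow_one]; exact Subtype.ext b.2.2⟩
      let O : Subgroup N := ⨅ P : Sylow p N, (P : Subgroup N)
      have hBO : B ≤ O := le_iInf fun P => by
        have h1 : IsPGroup p (B ⊔ (P : Subgroup N) : Subgroup N) :=
          hBp.to_sup_of_normal_left P.isPGroup'
        exact le_sup_left.trans (P.is_maximal' h1 le_sup_right).le
      have hBne : B ≠ ⊥ := fun e => by
        have h1 : a ^ (orderOf a / p) ∈ B := ⟨A.pow_mem ha _, by
          rw [← pow_mul, Nat.div_mul_cancel hpd, pow_orderOf_eq_one]⟩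
        rw [e, Subgroup.mem_bot, ← orderOf_dvd_iff_pow_eq_one] at h1
        have h2 := Nat.le_of_dvd (Nat.div_pos (Nat.le_of_dvd (orderOf_pos a) hpd) hp.pos) h1
        have h3 := Nat.div_lt_self (orderOf_pos a) hp.one_lt
        omega
      have hOinv : ∀ (e : MulAut N), ∀ m ∈ O, e m ∈ O := by
        intro e m hm
        rw [Subgroup.mem_iInf] at hm ⊢
        intro P
        have := hm ((e⁻¹ : MulAut N) • P)
        rw [Sylow.pointwise_smul_def, Subgroup.mem_pointwise_smul_iff_inv_smul_mem, inv_inv] at this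
        exact this
      haveI : O.Normal := ⟨fun m hm g => hOinv (MulAut.conj g) m hm⟩
      rcases invariant_normal φ hc hc1 hφ O (fun h => hOinv (φ h)) with e | e
      · exact hBne (le_bot_iff.1 (e ▸ hBO))
      · obtain ⟨P⟩ := (inferInstance : Nonempty (Sylow p N))
        have hN : IsPGroup p (⊤ : Subgroup N) :=
          P.isPGroup'.to_le (e.symm.le.trans (iInf_le (fun Q : Sylow p N => (Q : Subgroup N)) P))
        haveI := (hN.of_equiv Subgroup.topEquiv).center_nontrivial
        exact (Subgroup.nontrivial_iff_ne_bot _).1 this hcen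
    refine not_constant φ hc hc1 hφ fun x y hx hy => ?_
    set M := Subgroup.normalClosure ({x} : Set N) with hMdef
    set My := Subgroup.normalClosure ({y} : Set N) with hMydef
    have hfix : ∀ z : N, z ≠ 1 → ∀ m ∈ Subgroup.normalClosure ({z} : Set N), ∀ h ∈ fixer φ z, φ h m = m := by
      intro z hz m hm h hh
      have hle : Subgroup.normalClosure ({z} : Set N) ≤ (φ h).toMonoidHom.eqLocus (MonoidHom.id N) := by
        refine (Subgroup.closure_le _).2 fun w hw => ?_
        obtain ⟨z', hz', hw'⟩ := Group.mem_conjugatesOfSet_iff.1 hw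
        rw [Set.mem_singleton_iff] at hz'
        subst hz'
        obtain ⟨n, rfl⟩ := isConj_iff.1 hw'
        exact (fixer_conj φ hc hc1 hz n).le hh
      exact hle hm
    have hxM : x ∈ M := Subgroup.subset_normalClosure (Set.mem_singleton x)
    have hyM : y ∈ My := Subgroup.subset_normalClosure (Set.mem_singleton y)
    by_cases hint : ∃ z, z ∈ M ∧ z ∈ My ∧ z ≠ 1
    · obtain ⟨z, hzx, hzy, hz⟩ := hint
      rw [fixer_eq_of_le φ hc hx hz (fun h hh => hfix x hx z hzx h hh),
        fixer_eq_of_le φ hc hy hz (fun h hh => hfix y hy z hzy h hh)]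
    push Not at hint
    -- `x` moves inside its normal closure
    obtain ⟨u, hu, hux⟩ : ∃ u ∈ M, u * x * u⁻¹ ≠ x := by
      by_contra h
      push Not at h
      have hA := habel (M ⊓ Subgroup.centralizer (M : Set N)) inferInstance
        (fun a ha b hb => (Subgroup.mem_centralizer_iff.1 hb.2 a ha.1))
      have : x ∈ M ⊓ Subgroup.centralizer (M : Set N) :=
        ⟨hxM, Subgroup.mem_centralizer_iff.2 fun v hv => mul_inv_eq_iff_eq_mul.1 (h v hv)⟩
      rw [hA, Subgroup.mem_bot] at this
      exact hx this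
    have huy : u * y * u⁻¹ = y := by
      have h1 : u * y * u⁻¹ * y⁻¹ ∈ My :=
        My.mul_mem (Subgroup.normalClosure_normal.conj_mem y hyM u) (My.inv_mem hyM)
      have h2 : u * y * u⁻¹ * y⁻¹ ∈ M := by
        rw [mul_assoc, mul_assoc]
        exact M.mul_mem hu (by rw [← mul_assoc]; exact Subgroup.normalClosure_normal.conj_mem _ (M.inv_mem hu) y)
      exact mul_inv_eq_one.1 (hint _ h2 h1)
    set z := x * y with hzdef
    have hz : z ≠ 1 := fun e => hy (hint y (by
      have : y = x⁻¹ := eq_inv_of_mul_eq_one_right e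
      rw [this]; exact M.inv_mem hxM) hyM)
    set w := u * x * u⁻¹ * x⁻¹ with hwdef
    have hw : w ≠ 1 := fun e => hux (mul_inv_eq_one.1 e)
    have hwM : w ∈ M := M.mul_mem (Subgroup.normalClosure_normal.conj_mem x hxM u) (M.inv_mem hxM)
    have hzw : fixer φ z = fixer φ w := by
      refine fixer_eq_of_le φ hc hz hw fun h hh => ?_
      have h1 : φ h z = z := hh
      have h2 : φ h (u * z * u⁻¹) = u * z * u⁻¹ := (fixer_conj φ hc hc1 hz u).le hh
      have e : w = u * z * u⁻¹ * z⁻¹ := by
        rw [hwdef, hzdef, show u * (x * y) * u⁻¹ = u * x * u⁻¹ * (u * y * u⁻¹) by group, huy]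
        group
      show φ h w = w
      rw [e, map_mul (φ h), map_inv (φ h), h1, h2]
    have hxw : fixer φ x = fixer φ w := fixer_eq_of_le φ hc hx hw fun h hh => hfix x hx w hwM h hh
    refine fixer_eq_of_le φ hc hx hy fun h hh => ?_
    have h1 : φ h z = z := (hxw.trans hzw.symm).le hh
    rw [hzdef, map_mul, show φ h x = x from hh, mul_right_inj] at h1
    exact h1
  obtain ⟨x, hx⟩ := exists_ne (1 : N)
  obtain ⟨p, hp, hpd⟩ := Nat.exists_prime_and_dvd (show orderOf x ≠ 1 by rwa [ne_eq, orderOf_eq_one_iff])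
  let B : Subgroup N :=
    { carrier := {b | b ^ p = 1}
      one_mem' := one_pow _
      mul_mem' := fun {u v} (hu : u ^ p = 1) (hv : v ^ p = 1) => by
        show (u * v) ^ p = 1
        rw [(show Commute u v from hab u v).mul_pow, hu, hv, one_mul]
      inv_mem' := fun {u} (hu : u ^ p = 1) => by show u⁻¹ ^ p = 1; rw [inv_pow, hu, inv_one] }
  haveI : B.Normal := ⟨fun b hb g => by rwa [hab g b, mul_inv_cancel_right]⟩
  rcases invariant_normal φ hc hc1 hφ B (fun h m (hm : m ^ p = 1) => by
    show (φ h m) ^ p = 1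
    rw [← map_pow, hm, map_one]) with e | e
  · exfalso
    have h1 : x ^ (orderOf x / p) ∈ B := show (x ^ (orderOf x / p)) ^ p = 1 by
      rw [← pow_mul, Nat.div_mul_cancel hpd, pow_orderOf_eq_one]
    rw [e, Subgroup.mem_bot, ← orderOf_dvd_iff_pow_eq_one] at h1
    have h2 := Nat.le_of_dvd (Nat.div_pos (Nat.le_of_dvd (orderOf_pos x) hpd) hp.pos) h1
    have h3 := Nat.div_lt_self (orderOf_pos x) hp.one_lt
    omega
  · exact ⟨p, hp, hab, fun a => (e ▸ Subgroup.mem_top a : a ∈ B)⟩

end CfsgLib.HalfTransitive.Auto
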